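-- helper85: project OPAR (S5989, helper70), package [OM2B]: no element of `Ω⁺_{2d}(q)` has square
-- `-1` when `q ≡ 5 (mod 8)` and `d` is odd.  Proof by the sign character of helper14: such an
-- element acts on the level set `{Q = 1}` with all cycles of length 4, and the level set has
-- `q^(d-1) (q^d - 1) ≡ 4 (mod 8)` elements, so the permutation is odd.
import Mathlib
import Cfsg.Agent.Lib.Helper70.OPar.Defs
import Cfsg.Agent.Lib.Helper14.Spinor
import Cfsg.Agent.Lib.Helper94.PG.Level

set_option autoImplicit false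
open scoped MatrixGroups
open Matrix

universe u

namespace Cfsg.Agent.Lib.Helper85.OPar

/-- A permutation of order dividing 4 whose square has no fixed point: all cycles have length 4. -/
theorem sign_of_sq_fpf {α : Type*} [DecidableEq α] [Fintype α] (σ : Equiv.Perm α)
    (h4 : σ ^ 4 = 1) (hfp : ∀ a, σ (σ a) ≠ a) :
    ∃ k : ℕ, Fintype.card α = 4 * k ∧ Equiv.Perm.sign σ = (-1) ^ k := by
  have hall : ∀ n ∈ σ.cycleType, n = 4 := by
    intro n hn
    have h1 : n ∣ 4 := (Equiv.Perm.dvd_of_mem_cycleType hn).trans (orderOf_dvd_of_pow_eq_one h4)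
    have h2 : 2 ≤ n := Equiv.Perm.two_le_of_mem_cycleType hn
    have h3 : n ≤ 4 := Nat.le_of_dvd (by norm_num) h1
    by_contra hne
    have hn2 : n = 2 := by
      interval_cases n
      · rfl
      · exact absurd h1 (by norm_num)
      · exact absurd rfl hne
    subst hn2
    rw [Equiv.Perm.mem_cycleType_iff] at hn
    obtain ⟨c, τ, hστ, hdis, -, hcard⟩ := hn
    rw [Equiv.Perm.card_support_eq_two] at hcard
    obtain ⟨a, b, hab, rfl⟩ := hcard
    have ha : τ a = a := by
      rcases hdis a with h | h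
      · rw [Equiv.swap_apply_left] at h
        exact absurd h.symm hab
      · exact h
    have hb : τ b = b := by
      rcases hdis b with h | h
      · rw [Equiv.swap_apply_right] at h
        exact absurd h hab
      · exact h
    apply hfp a
    rw [hστ, Equiv.Perm.mul_apply, Equiv.Perm.mul_apply, ha, Equiv.swap_apply_left, hb,
      Equiv.swap_apply_right]
  have hsupp : σ.support = Finset.univ := by
    ext a
    simp only [Equiv.Perm.mem_support, Finset.mem_univ, iff_true]
    intro h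
    apply hfp a
    rw [h, h]
  have hsum := Equiv.Perm.sum_cycleType σ
  rw [hsupp, Finset.card_univ] at hsum
  have hrep := Multiset.eq_replicate_card.mpr hall
  refine ⟨Multiset.card σ.cycleType, ?_, ?_⟩
  · rw [← hsum]
    conv_lhs => rw [hrep]
    rw [Multiset.sum_replicate, smul_eq_mul, mul_comm]
  · rw [Equiv.Perm.sign_of_cycleType, hsum]
    have e : Fintype.card α = 4 * Multiset.card σ.cycleType := by
      rw [← hsum]
      conv_lhs => rw [hrep]
      rw [Multiset.sum_replicate, smul_eq_mul, mul_comm]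
    rw [e, pow_add, pow_mul]
    norm_num

section count

open Classical

variable {F : Type u} [Field F] [Fintype F]

/-- `q · #{Q = 1} = q^(2d) - q^d` for the hyperbolic form. -/
theorem card_level_one (d : ℕ) :
    (Fintype.card F : ℤ) *
        (Nat.card {v : Fin d ⊕ Fin d → F // Cfsg.quadFormPlus d F v = 1} : ℤ) =
      (Fintype.card F : ℤ) ^ (2 * d) - (Fintype.card F : ℤ) ^ d := by
  have h0 := Cfsg.Agent.Lib.Helper94.PG.lv_zero (F := F) d
  have h1 := Cfsg.Agent.Lib.Helper94.PG.lv_total (F := F) d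
  have e : Nat.card {v : Fin d ⊕ Fin d → F // Cfsg.quadFormPlus d F v = 1} =
      Cfsg.Agent.Lib.Helper94.PG.lv d (1 : F) := by
    rw [Cfsg.Agent.Lib.Helper94.PG.card_sub]
    rfl
  rw [e]
  have hq1 : (Fintype.card F : ℤ) - 1 ≠ 0 := by
    have := Fintype.one_lt_card (α := F)
    omega
  apply mul_left_cancel₀ hq1
  have : ((Fintype.card F : ℤ) - 1) * ((Fintype.card F : ℤ) *
      (Cfsg.Agent.Lib.Helper94.PG.lv d (1 : F) : ℤ)) =
      (Fintype.card F : ℤ) * ((Fintype.card F : ℤ) ^ (2 * d)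
        - (Cfsg.Agent.Lib.Helper94.PG.lv d (0 : F) : ℤ)) := by
    rw [← h1]; ring
  rw [this, mul_sub, h0, pow_succ]
  ring

end count

/-- `q ≡ 5 (mod 8)`, `d` odd: the level set `{Q = 1}` has `≡ 4 (mod 8)` elements. -/
theorem card_level_one_mod {F : Type u} [Field F] [Fintype F] (hq : Fintype.card F % 8 = 5)
    (d : ℕ) (hd : Odd d) :
    Nat.card {v : Fin d ⊕ Fin d → F // Cfsg.quadFormPlus d F v = 1} % 8 = 4 := by
  have h := card_level_one (F := F) d
  set L := Nat.card {v : Fin d ⊕ Fin d → F // Cfsg.quadFormPlus d F v = 1} with hL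
  have hq8 : ((Fintype.card F : ℕ) : ZMod 8) = 5 := by
    have : ((Fintype.card F : ℕ) : ZMod 8) = ((5 : ℕ) : ZMod 8) := by
      rw [ZMod.natCast_eq_natCast_iff']
      omega
    simpa using this
  have hqd : ((Fintype.card F : ℕ) : ZMod 8) ^ d = 5 := by
    obtain ⟨k, rfl⟩ := hd
    rw [hq8, pow_succ, pow_mul]
    have : (5 : ZMod 8) ^ 2 = 1 := by decide
    rw [this, one_pow, one_mul]
  have h8 := congrArg (Int.cast : ℤ → ZMod 8) h
  push_cast at h8
  rw [pow_mul', hqd, hq8] at h8
  have hL8 : (L : ZMod 8) = ((4 : ℕ) : ZMod 8) := by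
    have e5 : (5 : ZMod 8) * (5 * (L : ZMod 8)) = 5 * (5 ^ 2 - 5) := by rw [h8]
    have e25 : (5 : ZMod 8) * 5 = 1 := by decide
    rw [← mul_assoc, e25, one_mul] at e5
    rw [e5]
    decide
  rw [ZMod.natCast_eq_natCast_iff'] at hL8
  omega

/-- **[OM2B]** -/
theorem pkgOm2B : Cfsg.Agent.Lib.Helper70.OPar.PkgOm2B.{u} := by
  classical
  intro F _ _ hq d hd x hx hxx
  have h2 : (2 : F) ≠ 0 := by
    apply Ring.two_ne_zero
    intro hchar
    have := FiniteField.even_card_of_char_two hchar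
    omega
  unfold Cfsg.Geo.omegaGL at hx
  obtain ⟨g, hg, rfl⟩ := hx
  have e1 : Cfsg.Agent.Lib.Helper14.signChar (Cfsg.quadFormPlus d F) 1 g = 1 :=
    Abelianization.commutator_subset_ker _ hg
  haveI : Fintype {v : Fin d ⊕ Fin d → F // Cfsg.quadFormPlus d F v = 1} := Fintype.ofFinite _
  rw [Cfsg.Agent.Lib.Helper14.signChar_eq_sign] at e1
  set σ := Cfsg.Agent.Lib.Helper14.levelPerm (Cfsg.quadFormPlus d F) 1 g with hσ
  have hσσ : ∀ v : {v : Fin d ⊕ Fin d → F // Cfsg.quadFormPlus d F v = 1},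
      ((σ (σ v) : {v : Fin d ⊕ Fin d → F // Cfsg.quadFormPlus d F v = 1}) : Fin d ⊕ Fin d → F)
        = -v.1 := by
    intro v
    rw [hσ, Cfsg.Agent.Lib.Helper14.levelPerm_apply, Cfsg.Agent.Lib.Helper14.levelPerm_apply,
      Matrix.mulVec_mulVec]
    have : ((g : ↥(Cfsg.isometryGroup F (Cfsg.quadFormPlus d F))) : GL (Fin d ⊕ Fin d) F).1 *
        ((g : ↥(Cfsg.isometryGroup F (Cfsg.quadFormPlus d F))) : GL (Fin d ⊕ Fin d) F).1 = -1 :=
      hxx
    rw [this, Matrix.neg_mulVec, Matrix.one_mulVec]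
  have hfp : ∀ v, σ (σ v) ≠ v := by
    intro v hv
    have h := hσσ v
    rw [hv] at h
    have hv0 : v.1 = 0 := by
      have : (2 : F) • v.1 = 0 := by
        rw [two_smul]
        nth_rewrite 1 [h]
        exact neg_add_cancel _
      exact (smul_eq_zero.mp this).resolve_left h2
    have hQ := v.2
    rw [hv0] at hQ
    unfold Cfsg.quadFormPlus at hQ
    simp at hQ
  have h4 : σ ^ 4 = 1 := by
    ext v
    have e : (σ ^ 4) v = σ (σ (σ (σ v))) := by
      simp only [pow_succ, pow_zero, one_mul, Equiv.Perm.mul_apply]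
    rw [e, hσσ, Equiv.Perm.one_apply, hσσ, neg_neg]
  obtain ⟨k, hk, hsign⟩ := sign_of_sq_fpf σ h4 hfp
  have hmod := card_level_one_mod hq d hd
  rw [Nat.card_eq_fintype_card] at hmod
  have hkodd : Odd k := by
    rw [Nat.odd_iff]
    have : Fintype.card {v : Fin d ⊕ Fin d → F // Cfsg.quadFormPlus d F v = 1} = 4 * k := by
      rw [← hk]
    omega
  rw [hsign, hkodd.neg_one_pow] at e1
  exact absurd e1 (by decide)

end Cfsg.Agent.Lib.Helper85.OPar
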